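import Mathlib
import Cfsg.Agent.Lib.Helper15.Ward.Defs
import Cfsg.Agent.Lib.Helper15.Ward.Mod
import Cfsg.Agent.Lib.Helper15.Ward.Grp

/-! # Ward's theorem (S3796), piece J: `claim3` -/

set_option autoImplicit false

namespace Cfsg.Agent.Lib.Helper21.Ward

open Subgroup Cfsg.Agent.Lib.Helper88 Cfsg.Agent.Lib.Helper15.Ward

variable {V : Type*} [CommGroup V]

/-- elements of `N(Q)` whose conjugation action on `Q` is invisible on `U` -/
def GG (Q : Subgroup (MulAut V)) (U : Subgroup V) : Subgroup (MulAut V) where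
  carrier := {g | g ∈ normalizer (Q : Set (MulAut V)) ∧ ∀ x ∈ Q, ∀ u ∈ U, (g * x * g⁻¹) u = x u}
  one_mem' := ⟨one_mem _, fun x _ u _ => by simp⟩
  mul_mem' := by
    rintro g h ⟨hg, hg'⟩ ⟨hh, hh'⟩
    refine ⟨mul_mem hg hh, fun x hx u hu => ?_⟩
    have h1 : h * x * h⁻¹ ∈ Q := (mem_normalizer_iff.1 hh x).1 hx
    have : g * h * x * (g * h)⁻¹ = g * (h * x * h⁻¹) * g⁻¹ := by group
    rw [this, hg' _ h1 u hu, hh' x hx u hu]
  inv_mem' := by
    rintro g ⟨hg, hg'⟩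
    refine ⟨inv_mem hg, fun x hx u hu => ?_⟩
    have h1 : g⁻¹ * x * g⁻¹⁻¹ ∈ Q := (mem_normalizer_iff.1 (inv_mem hg) x).1 hx
    have := hg' _ h1 u hu
    rw [← this]
    congr 1
    group

theorem mem_GG {Q : Subgroup (MulAut V)} {U : Subgroup V} {g : MulAut V} :
    g ∈ GG Q U ↔ g ∈ normalizer (Q : Set (MulAut V)) ∧ ∀ x ∈ Q, ∀ u ∈ U, (g * x * g⁻¹) u = x u :=
  Iff.rfl

/-- a fixed-point-free element of `GG Q U` normalizing `Z ≤ Q` forces `Z` to fix `U` -/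
theorem fix_of_fpf [Finite V] {Q Z : Subgroup (MulAut V)} {U : Subgroup V} (hZQ : Z ≤ Q)
    {a' : MulAut V} (haZ : a' ∈ normalizer (Z : Set (MulAut V))) (haG : a' ∈ GG Q U)
    (hfpf : Z ⊓ centralizer {a'} = ⊥) : ∀ z ∈ Z, ∀ u ∈ U, z u = u := by
  have hinj : Function.Injective (fun z : Z => (⟨(z : MulAut V)⁻¹ * (a' * z * a'⁻¹),
      mul_mem (inv_mem z.2) ((mem_normalizer_iff.1 haZ z).1 z.2)⟩ : Z)) := by
    intro z y h
    have h1 : (z : MulAut V)⁻¹ * (a' * z * a'⁻¹) = (y : MulAut V)⁻¹ * (a' * y * a'⁻¹) :=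
      congrArg Subtype.val h
    have h2 : (y : MulAut V) * (z : MulAut V)⁻¹ ∈ Z ⊓ centralizer {a'} := by
      refine mem_inf.2 ⟨mul_mem y.2 (inv_mem z.2), ?_⟩
      rw [mem_centralizer_singleton_iff]
      have h3 : (y : MulAut V) * (z : MulAut V)⁻¹ = (a' * y * a'⁻¹) * (a' * z * a'⁻¹)⁻¹ := by
        rw [eq_mul_inv_iff_mul_eq, mul_assoc, h1]; group
      have h4 : (a' * y * a'⁻¹) * (a' * z * a'⁻¹)⁻¹ = a' * ((y : MulAut V) * (z : MulAut V)⁻¹) * a'⁻¹ := by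
        group
      rw [h4] at h3
      conv_lhs => rw [h3]
      group
    rw [hfpf, mem_bot, mul_inv_eq_one] at h2
    exact Subtype.ext h2.symm
  have hsurj := Finite.surjective_of_injective hinj
  intro z hz u hu
  obtain ⟨y, hy⟩ := hsurj ⟨z, hz⟩
  have h1 : (y : MulAut V)⁻¹ * (a' * y * a'⁻¹) = z := congrArg Subtype.val hy
  rw [← h1, MulAut.mul_apply, haG.2 y (hZQ y.2) u hu, ← MulAut.mul_apply, inv_mul_cancel,
    MulAut.one_apply]

theorem exists_zpow_mul_zpow {G : Type*} [Group G] {a b g : G} (hab : Commute a b)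
    (hg : g ∈ zpowers a ⊔ zpowers b) : ∃ k j : ℤ, a ^ k * b ^ j = g := by
  let P : Subgroup G :=
    { carrier := {g | ∃ k j : ℤ, a ^ k * b ^ j = g}
      one_mem' := ⟨0, 0, by simp⟩
      mul_mem' := by
        rintro _ _ ⟨k, j, rfl⟩ ⟨k', j', rfl⟩
        refine ⟨k + k', j + j', ?_⟩
        have h1 : Commute (b ^ j) (a ^ k') := (hab.zpow_zpow k' j).symm
        calc a ^ (k + k') * b ^ (j + j') = a ^ k * (a ^ k' * b ^ j) * b ^ j' := by
              rw [zpow_add, zpow_add]; group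
          _ = a ^ k * (b ^ j * a ^ k') * b ^ j' := by rw [h1.eq]
          _ = _ := by group
      inv_mem' := by
        rintro _ ⟨k, j, rfl⟩
        refine ⟨-k, -j, ?_⟩
        have h1 : Commute (a ^ k) (b ^ j) := hab.zpow_zpow k j
        rw [h1.eq, mul_inv_rev, zpow_neg, zpow_neg] }
  have : zpowers a ⊔ zpowers b ≤ P :=
    sup_le (zpowers_le.2 ⟨1, 0, by simp⟩) (zpowers_le.2 ⟨0, 1, by simp⟩)
  exact this hg

theorem claim3 [Finite V] {p s : ℕ} [Fact p.Prime] [Fact s.Prime] (hps : p ≠ s) (A S Q Z : Subgroup (MulAut V))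
    (hAc : ∀ x ∈ A, ∀ y ∈ A, x * y = y * x) (hAp : ∀ x ∈ A, x ^ p = 1) (hA2 : Nat.card A = p ^ 2) (hS : IsPGroup s S)
    (hZQ : Z ≤ Q) (hZc : ∀ z ∈ Z, ∀ x ∈ Q, z * x = x * z) (hZV : (Nat.card Z).Coprime (Nat.card V)) (hpZ : ¬ p ∣ Nat.card Z)
    (hAQ : A ≤ normalizer (Q : Set (MulAut V))) (hAZ : A ≤ normalizer (Z : Set (MulAut V))) (hAS : A ≤ normalizer (S : Set (MulAut V)))
    (hSQ : S ≤ normalizer (Q : Set (MulAut V))) (hSZ : S ≤ normalizer (Z : Set (MulAut V)))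
    (a : MulAut V) (ha : a ∈ A) (ha1 : a ≠ 1) (hSa : S ≤ centralizer {a}) (hDa : Z ⊓ centralizer {a} = ⊥)
    (hP : ∀ b ∈ A, b ≠ 1 → ∀ x ∈ Q, ∀ w ∈ commSub (Z ⊓ centralizer {b}), (b * x * b⁻¹) w = x w)
    (b₀ : MulAut V) (hb₀ : b₀ ∈ A) (hb₀a : b₀ ∉ zpowers a) :
    ∀ t ∈ S, ∀ w ∈ commSub (Z ⊓ centralizer {b₀}), t w ∈ commSub (Z ⊓ centralizer {b₀}) := by
  intro t ht w hw
  have hp : p.Prime := Fact.out
  have hcop : ∀ D : Subgroup (MulAut V), D ≤ Z → (Nat.card D).Coprime (Nat.card V) :=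
    fun D hD => Nat.Coprime.coprime_dvd_left (Subgroup.card_dvd_of_le hD) hZV
  have hb₀1 : b₀ ≠ 1 := by
    rintro rfl
    exact hb₀a (one_mem _)
  set β : MulAut V := t * b₀ * t⁻¹ with hβ
  set D' : Subgroup (MulAut V) := Z ⊓ centralizer {β} with hD'
  set M : Subgroup V := commSub D' with hM
  -- `t W b₀ ⊆ M`
  have htM : ∀ w ∈ commSub (Z ⊓ centralizer {b₀}), t w ∈ M := by
    intro w hw
    refine map_commSub t ?_ hw
    intro x hx
    obtain ⟨hx1, hx2⟩ := mem_inf.1 hx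
    refine mem_inf.2 ⟨(mem_normalizer_iff.1 (hSZ ht) x).1 hx1, ?_⟩
    rw [mem_centralizer_singleton_iff] at hx2 ⊢
    rw [hβ]
    calc t * x * t⁻¹ * (t * b₀ * t⁻¹) = t * (x * b₀) * t⁻¹ := by group
      _ = t * (b₀ * x) * t⁻¹ := by rw [hx2]
      _ = _ := by group
  have htM' : ∀ m ∈ M, t⁻¹ m ∈ commSub (Z ⊓ centralizer {b₀}) := by
    intro m hm
    refine map_commSub t⁻¹ ?_ hm
    intro x hx
    obtain ⟨hx1, hx2⟩ := mem_inf.1 hx
    refine mem_inf.2 ⟨(mem_normalizer_iff.1 (inv_mem (hSZ ht)) x).1 hx1, ?_⟩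
    rw [mem_centralizer_singleton_iff] at hx2 ⊢
    rw [hβ] at hx2
    calc t⁻¹ * x * t⁻¹⁻¹ * b₀ = t⁻¹ * (x * (t * b₀ * t⁻¹)) * t := by group
      _ = t⁻¹ * ((t * b₀ * t⁻¹) * x) * t := by rw [hx2]
      _ = _ := by group
  -- `M` is `Q`-invariant
  have hMQ : ∀ x ∈ Q, ∀ m ∈ M, x m ∈ M := by
    intro x hx m hm
    refine map_commSub x ?_ hm
    intro d hd
    have : x * d * x⁻¹ = d := by
      rw [← hZc d (mem_inf.1 hd).1 x hx]; group
    rw [this]
    exact hd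
  -- (P'')
  have hP'' : ∀ x ∈ Q, ∀ m ∈ M, (β * x * β⁻¹) m = x m := by
    intro x hx m hm
    have h1 := hP b₀ hb₀ hb₀1 (t⁻¹ * x * t⁻¹⁻¹) ((mem_normalizer_iff.1 (inv_mem (hSQ ht)) x).1 hx)
      (t⁻¹ m) (htM' m hm)
    have h2 := congrArg t h1
    simp only [← MulAut.mul_apply] at h2
    have e1 : t * (b₀ * (t⁻¹ * x * t⁻¹⁻¹) * b₀⁻¹ * t⁻¹) = β * x * β⁻¹ := by
      rw [hβ]; group
    have e2 : t * (t⁻¹ * x * t⁻¹⁻¹ * t⁻¹) = x := by group
    rw [e1, e2] at h2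
    exact h2
  have hβN : β ∈ normalizer (Q : Set (MulAut V)) :=
    mul_mem (mul_mem (hSQ ht) (hAQ hb₀)) (inv_mem (hSQ ht))
  have stepA : ∀ b ∈ A, b ≠ 1 → b ∉ zpowers b₀ → ∀ m ∈ M, ∀ d ∈ Z ⊓ centralizer {b}, d m = m := by
    intro b hb hb1 hbb₀ m hm d hd
    by_cases hba : b ∈ zpowers a
    · rw [centralizer_eq_of_mem_zpowers hp (hAp a ha) hba hb1, hDa, mem_bot] at hd
      rw [hd, MulAut.one_apply]
    · obtain ⟨f, u, hfM, huM, hf, hu, rfl⟩ := exists_decomp (D := Z ⊓ centralizer {b})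
        (hcop _ inf_le_left) M (fun x hx m hm => hMQ x (hZQ (mem_inf.1 hx).1) m hm) hm
      have hu1 : u = 1 := by
        set U : Subgroup V := M ⊓ commSub (Z ⊓ centralizer {b}) with hU
        have huU : u ∈ U := mem_inf.2 ⟨huM, hu⟩
        have hbG : b ∈ GG Q U := ⟨hAQ hb, fun x hx u hu => hP b hb hb1 x hx u (mem_inf.1 hu).2⟩
        have hβG : β ∈ GG Q U := ⟨hβN, fun x hx u hu => hP'' x hx u (mem_inf.1 hu).1⟩
        have hsup := sup_zpowers_eq hp A hAp hA2 ha ha1 hb₀ hb₀a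
        have hb' : b ∈ zpowers a ⊔ zpowers b₀ := by rw [hsup]; exact hb
        obtain ⟨k, j, hxy⟩ := exists_zpow_mul_zpow (hAc a ha b₀ hb₀) hb'
        have hak : a ^ k ≠ 1 := by
          intro h
          rw [h, one_mul] at hxy
          exact hbb₀ (hxy ▸ zpow_mem (mem_zpowers _) j)
        set c : MulAut V := b₀ ^ j * t * (b₀ ^ j)⁻¹ * t⁻¹ with hc
        have hcS : c ∈ S :=
          mul_mem ((mem_normalizer_iff.1 (hAS (zpow_mem hb₀ j)) t).1 ht) (inv_mem ht)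
        have hγ : b * (β ^ j)⁻¹ = a ^ k * c := by
          rw [← hxy, hβ, hc, conj_zpow]; group
        have hγG : a ^ k * c ∈ GG Q U := hγ ▸ mul_mem hbG (inv_mem (zpow_mem hβG j))
        have hcomm : Commute (a ^ k) c := by
          have h1 : Commute a c := by
            have := hSa hcS
            rw [mem_centralizer_singleton_iff] at this
            exact this.symm
          exact h1.zpow_left k
        have hpow : (a ^ k * c) ^ Nat.card S = (a ^ k) ^ Nat.card S := by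
          rw [hcomm.mul_pow]
          have : c ^ Nat.card S = 1 := by
            have := pow_card_eq_one' (G := S) (x := ⟨c, hcS⟩)
            exact congrArg Subtype.val this
          rw [this, mul_one]
        set a' := (a ^ k) ^ Nat.card S with ha'
        have ha'G : a' ∈ GG Q U := hpow ▸ pow_mem hγG _
        have ha'z : a' ∈ zpowers a := pow_mem (zpow_mem (mem_zpowers a) k) _
        have ha'1 : a' ≠ 1 := by
          intro h
          have h1 : orderOf (a ^ k) ∣ Nat.card S := orderOf_dvd_of_pow_eq_one h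
          have h2 : orderOf (a ^ k) ∣ p := orderOf_dvd_of_pow_eq_one (hAp _ (zpow_mem ha k))
          obtain ⟨n, hn⟩ := IsPGroup.iff_card.1 hS
          have h3 : Nat.Coprime p (Nat.card S) := by
            rw [hn]; exact Nat.Coprime.pow_right _ ((Nat.coprime_primes hp Fact.out).2 hps)
          have h4 : orderOf (a ^ k) = 1 := Nat.eq_one_of_dvd_coprimes h3 h2 h1
          exact hak (orderOf_eq_one_iff.1 h4)
        have hfpf : Z ⊓ centralizer {a'} = ⊥ := by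
          rw [centralizer_eq_of_mem_zpowers hp (hAp a ha) ha'z ha'1, hDa]
        have ha'A : a' ∈ A := pow_mem (zpow_mem ha k) _
        have hZu := fix_of_fpf hZQ (hAZ ha'A) ha'G hfpf
        exact eq_one_of_fixed (hcop _ inf_le_left) hu (fun x hx => hZu x (mem_inf.1 hx).1 u huU)
      rw [hu1, mul_one]
      exact hf d hd
  obtain ⟨f, u, hfM, huM, hf, hu, hv⟩ := exists_decomp (D := Z ⊓ centralizer {b₀})
    (hcop _ inf_le_left) M (fun x hx m hm => hMQ x (hZQ (mem_inf.1 hx).1) m hm) (htM w hw)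
  have hfZ : Z ≤ MulAction.stabilizer (MulAut V) f := by
    refine Cfsg.Agent.Lib.Helper22.le_of_forall_centralizer_le A Z _ hAc hAp (by rw [hA2]) hpZ hAZ ?_
    intro b hb hb1 d hd
    rw [MulAction.mem_stabilizer_iff, MulAut.smul_def]
    by_cases hbb : b ∈ zpowers b₀
    · rw [centralizer_eq_of_mem_zpowers hp (hAp b₀ hb₀) hbb hb1] at hd
      exact hf d hd
    · exact stepA b hb hb1 hbb f hfM d hd
  have hf1 : f = 1 := eq_one_of_fixed (hcop D' inf_le_left) hfM (fun x hx => by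
    have := hfZ (mem_inf.1 hx).1
    rwa [MulAction.mem_stabilizer_iff, MulAut.smul_def] at this)
  rw [hv, hf1, one_mul]
  exact hu

end Cfsg.Agent.Lib.Helper21.Ward
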