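import Mathlib

set_option autoImplicit false

namespace Cfsg.Agent.Lib.Helper21.BG14Count

open Subgroup

section aux
variable {G : Type*} [Group G]

theorem mem_cj (H : Subgroup G) (g x : G) :
    x ∈ H.map (MulAut.conj g).toMonoidHom ↔ g⁻¹ * x * g ∈ H := by
  constructor
  · rintro ⟨y, hy, rfl⟩
    have : g⁻¹ * (MulAut.conj g).toMonoidHom y * g = y := by
      simp [MulAut.conj_apply, mul_assoc]
    rw [this]; exact hy
  · intro h
    exact ⟨g⁻¹ * x * g, h, by simp [MulAut.conj_apply, mul_assoc]⟩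

theorem cj_mem (H : Subgroup G) (g : G) {a : G} (ha : a ∈ H) :
    g * a * g⁻¹ ∈ H.map (MulAut.conj g).toMonoidHom := ⟨a, ha, by simp [MulAut.conj_apply]⟩

theorem map_cj (H : Subgroup G) (r g : G) :
    (H.map (MulAut.conj g).toMonoidHom).map (MulAut.conj r).toMonoidHom
      = H.map (MulAut.conj (r * g)).toMonoidHom := by
  ext x
  rw [mem_cj, mem_cj, mem_cj]
  have : g⁻¹ * (r⁻¹ * x * r) * g = (r * g)⁻¹ * x * (r * g) := by group
  rw [this]

theorem cj_self (M : Subgroup G) {m : G} (hm : m ∈ M) :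
    M.map (MulAut.conj m).toMonoidHom = M := by
  ext x
  rw [mem_cj]
  constructor
  · intro h
    have : x = m * (m⁻¹ * x * m) * m⁻¹ := by group
    rw [this]
    exact mul_mem (mul_mem hm h) (inv_mem hm)
  · intro h
    exact mul_mem (mul_mem (inv_mem hm) h) hm

theorem cj_mul_right (M : Subgroup G) (k : G) {m : G} (hm : m ∈ M) :
    M.map (MulAut.conj (k * m)).toMonoidHom = M.map (MulAut.conj k).toMonoidHom := by
  rw [← map_cj, cj_self M hm]

end aux

theorem count_abstract {G : Type*} [Group G] [Finite G] (M : Subgroup G)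
    (S : Subgroup G → Subgroup G) (R : Subgroup G → G → Subgroup G)
    (hN : ∀ g : G, M.map (MulAut.conj g).toMonoidHom = M → g ∈ M)
    (hSle : S M ≤ M)
    (hS : ∀ g : G, S (M.map (MulAut.conj g).toMonoidHom) = (S M).map (MulAut.conj g).toMonoidHom)
    (hR : ∀ g a : G, a ∈ S M → a ≠ 1 →
      R (M.map (MulAut.conj g).toMonoidHom) (g * a * g⁻¹) = (R M a).map (MulAut.conj g).toMonoidHom)
    (hind : ∀ g h x : G, x ∈ S (M.map (MulAut.conj g).toMonoidHom) →
      x ∈ S (M.map (MulAut.conj h).toMonoidHom) → x ≠ 1 →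
      R (M.map (MulAut.conj g).toMonoidHom) x = R (M.map (MulAut.conj h).toMonoidHom) x)
    (hreg : ∀ g h x : G, x ∈ S (M.map (MulAut.conj g).toMonoidHom) → x ≠ 1 →
      x ∈ M.map (MulAut.conj h).toMonoidHom →
      ∃! r : G, r ∈ R (M.map (MulAut.conj g).toMonoidHom) x ∧
        (M.map (MulAut.conj g).toMonoidHom).map (MulAut.conj r).toMonoidHom
          = M.map (MulAut.conj h).toMonoidHom)
    (hcomm : ∀ g x : G, ∀ r ∈ R (M.map (MulAut.conj g).toMonoidHom) x, x * r = r * x)
    (hdisj : ∀ g h x y : G, x ∈ S (M.map (MulAut.conj g).toMonoidHom) →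
      y ∈ S (M.map (MulAut.conj h).toMonoidHom) → x ≠ 1 → y ≠ 1 → x ≠ y →
      ∀ r ∈ R (M.map (MulAut.conj g).toMonoidHom) x,
      ∀ s ∈ R (M.map (MulAut.conj h).toMonoidHom) y, x * r ≠ y * s) :
    Set.ncard {z : G | ∃ a ∈ ((S M : Set G) \ {1}), ∃ r ∈ R M a, ∃ y : G, z = y * (a * r) * y⁻¹}
      = (Nat.card (S M) - 1) * M.index := by
  classical
  -- choice of a conjugate
  obtain ⟨h, hh⟩ : ∃ h : G → G, ∀ x, (∃ g, x ∈ S (M.map (MulAut.conj g).toMonoidHom)) →
      x ∈ S (M.map (MulAut.conj (h x)).toMonoidHom) := by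
    refine ⟨fun x => if H : ∃ g, x ∈ S (M.map (MulAut.conj g).toMonoidHom) then H.choose else 1, ?_⟩
    intro x H
    simp only [dif_pos H]
    exact H.choose_spec
  let P := (G ⧸ M) × {a : G // a ∈ S M ∧ a ≠ 1}
  let xx : P → G := fun p => p.1.out * p.2.1 * p.1.out⁻¹
  have hx1 : ∀ p : P, xx p ∈ S (M.map (MulAut.conj p.1.out).toMonoidHom) := by
    intro p
    rw [hS]
    exact cj_mem _ _ p.2.2.1
  have hx2 : ∀ p : P, xx p ≠ 1 := by
    intro p hp
    apply p.2.2.2
    have : p.2.1 = p.1.out⁻¹ * xx p * p.1.out := by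
      simp only [xx]; group
    rw [this, hp]; group
  have hx3 : ∀ p : P, xx p ∈ M.map (MulAut.conj p.1.out).toMonoidHom :=
    fun p => cj_mem _ _ (hSle p.2.2.1)
  have hx4 : ∀ p : P, xx p ∈ S (M.map (MulAut.conj (h (xx p))).toMonoidHom) :=
    fun p => hh _ ⟨_, hx1 p⟩
  have hex := fun p : P => hreg (h (xx p)) p.1.out (xx p) (hx4 p) (hx2 p) (hx3 p)
  choose ρ hρ using hex
  simp only at hρ
  let F : P → G := fun p => xx p * ρ p
  have hinj : Function.Injective F := by
    intro p p' hpp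
    have hxx : xx p = xx p' := by
      by_contra hne
      exact hdisj _ _ _ _ (hx4 p) (hx4 p') (hx2 p) (hx2 p') hne _ (hρ p).1.1 _ (hρ p').1.1 hpp
    have hρρ : ρ p = ρ p' := by
      have : xx p * ρ p = xx p' * ρ p' := hpp
      rw [hxx] at this
      exact mul_left_cancel this
    have hCC : M.map (MulAut.conj p.1.out).toMonoidHom = M.map (MulAut.conj p'.1.out).toMonoidHom := by
      rw [← (hρ p).1.2, ← (hρ p').1.2, hxx, hρρ]
    have hmem : p'.1.out⁻¹ * p.1.out ∈ M := by
      apply hN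
      rw [← map_cj, hCC, map_cj, inv_mul_cancel]
      exact cj_self M (one_mem _)
    have h1 : p.1 = p'.1 := by
      rw [← QuotientGroup.out_eq' p.1, ← QuotientGroup.out_eq' p'.1]
      exact (QuotientGroup.eq.2 hmem).symm
    have h2 : p.2.1 = p'.2.1 := by
      have : p.1.out * p.2.1 * p.1.out⁻¹ = p'.1.out * p'.2.1 * p'.1.out⁻¹ := hxx
      rw [h1] at this
      exact mul_left_cancel (mul_right_cancel this)
    exact Prod.ext h1 (Subtype.ext h2)
  have hrange : {z : G | ∃ a ∈ ((S M : Set G) \ {1}), ∃ r ∈ R M a, ∃ y : G, z = y * (a * r) * y⁻¹}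
      = F '' Set.univ := by
    ext z
    simp only [Set.mem_ofPred_eq, Set.image_univ, Set.mem_range]
    constructor
    · rintro ⟨a, ⟨haS, ha1⟩, r, hr, y, rfl⟩
      have haS' : a ∈ S M := haS
      have ha1' : a ≠ 1 := ha1
      set x : G := y * a * y⁻¹ with hx
      have hxS : x ∈ S (M.map (MulAut.conj y).toMonoidHom) := by
        rw [hS]; exact cj_mem _ _ haS'
      have hxne : x ≠ 1 := by
        intro h1
        apply ha1'
        have : a = y⁻¹ * x * y := by rw [hx]; group
        rw [this, h1]; group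
      have hxh : x ∈ S (M.map (MulAut.conj (h x)).toMonoidHom) := hh x ⟨y, hxS⟩
      set r' : G := y * r * y⁻¹ with hr'
      have hr'R : r' ∈ R (M.map (MulAut.conj (h x)).toMonoidHom) x := by
        rw [← hind y (h x) x hxS hxh hxne, hx, hR y a haS' ha1']
        exact cj_mem _ _ hr
      set c : G ⧸ M := ((r' * h x : G) : G ⧸ M) with hc
      obtain ⟨m, hm⟩ := QuotientGroup.mk_out_eq_mul M (r' * h x)
      have hCg : M.map (MulAut.conj c.out).toMonoidHom
          = M.map (MulAut.conj (r' * h x)).toMonoidHom := by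
        rw [hc, hm]
        exact cj_mul_right M _ m.2
      have hxr : r' * x * r'⁻¹ = x := by
        rw [← hcomm (h x) x r' hr'R]; group
      have hxg : x ∈ (S M).map (MulAut.conj c.out).toMonoidHom := by
        rw [← hS, hCg, hS, ← map_cj, ← hS]
        have := cj_mem _ r' hxh
        rwa [hxr] at this
      have ha' : c.out⁻¹ * x * c.out ∈ S M := (mem_cj _ _ _).1 hxg
      have ha'1 : c.out⁻¹ * x * c.out ≠ 1 := by
        intro h1
        apply hxne
        have : x = c.out * (c.out⁻¹ * x * c.out) * c.out⁻¹ := by group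
        rw [this, h1]; group
      let p : P := (c, ⟨c.out⁻¹ * x * c.out, ha', ha'1⟩)
      have hxp : xx p = x := by
        show c.out * (c.out⁻¹ * x * c.out) * c.out⁻¹ = x
        group
      have hρp : r' = ρ p := by
        apply (hρ p).2
        rw [hxp]
        refine ⟨hr'R, ?_⟩
        rw [map_cj]
        exact hCg.symm
      refine ⟨p, ?_⟩
      show xx p * ρ p = _
      rw [hxp, ← hρp, hx, hr']
      group
    · rintro ⟨p, rfl⟩
      have h1 : ρ p ∈ (R M p.2.1).map (MulAut.conj p.1.out).toMonoidHom := by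
        rw [← hR _ _ p.2.2.1 p.2.2.2, ← hind _ _ _ (hx4 p) (hx1 p) (hx2 p)]
        exact (hρ p).1.1
      refine ⟨p.2.1, ⟨p.2.2.1, p.2.2.2⟩, p.1.out⁻¹ * ρ p * p.1.out, (mem_cj _ _ _).1 h1, p.1.out, ?_⟩
      show p.1.out * p.2.1 * p.1.out⁻¹ * ρ p = _
      group
  rw [hrange, Set.ncard_image_of_injective _ hinj, Set.ncard_univ, Nat.card_prod, mul_comm]
  congr 1
  have : Nat.card {a : G // a ∈ S M ∧ a ≠ 1} = ((S M : Set G) \ {1}).ncard := by
    rw [← Nat.card_coe_set_eq]
    exact Nat.card_congr (Equiv.subtypeEquivRight (by simp))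
  rw [this, Set.ncard_sdiff_singleton_of_mem (one_mem _)]
  rfl

end Cfsg.Agent.Lib.Helper21.BG14Count
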